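import Cfsg.Agent.H2.St.Degenerate

/-! The Steinberg character of `PΩ⁺₂(q)` and `PΩ⁺₄(2)`. -/

set_option autoImplicit false

namespace Cfsg.Agent.H2.St

open Cfsg QuadraticMap
open Cfsg.Agent.H5 (orth qPlus pairHom vecFour matFour)
open Cfsg.Agent.H92 (sx sy sw)
open scoped MatrixGroups Matrix

variable {F : Type*} [Field F]

/-- `Ω⁺₂(q)` is abelian. -/
theorem omegaPlusTwo_comm (a b : commutator (orth (qPlus 1 F))) : a * b = b * a := by
  classical
  set e : Fin 1 ⊕ Fin 1 → F := Pi.single (.inl 0) 1 with he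
  set f : Fin 1 ⊕ Fin 1 → F := Pi.single (.inr 0) 1 with hf
  have hQ : ∀ v : Fin 1 ⊕ Fin 1 → F, qPlus 1 F v = v (.inl 0) * v (.inr 0) := fun v => by
    simp [H5.coe_qPlus, Cfsg.quadFormPlus]
  have hdec : ∀ v : Fin 1 ⊕ Fin 1 → F, v = v (.inl 0) • e + v (.inr 0) • f := fun v => by
    funext k; rcases k with i | i <;> fin_cases i <;> simp [he, hf]
  have hlin : ∀ (g : orth (qPlus 1 F)) v,
      g.1 v = v (.inl 0) • g.1 e + v (.inr 0) • g.1 f := fun g v => by
    conv_lhs => rw [hdec v]
    simp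
  -- an isometry either fixes or exchanges the two singular lines
  have hcases : ∀ g : orth (qPlus 1 F),
      (g.1 e (.inr 0) = 0 ∧ g.1 f (.inl 0) = 0 ∧ g.1 e (.inl 0) ≠ 0) ∨
      (g.1 e (.inl 0) = 0 ∧ g.1 f (.inr 0) = 0 ∧ g.1 e (.inr 0) ≠ 0) := by
    intro g
    have h1 := H5.orth_map g e
    have h2 := H5.orth_map g f
    have h3 := H5.orth_polar g e f
    rw [H5.polar_qPlus, H5.polar_qPlus] at h3
    simp only [hQ] at h1 h2
    simp only [he, hf, Fin.sum_univ_one, Pi.single_apply, reduceCtorEq, if_false, if_true,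
      mul_zero, zero_mul, mul_one, add_zero] at h1 h2 h3 ⊢
    rcases mul_eq_zero.1 h1 with h | h
    · right
      rw [h, zero_mul, zero_add] at h3
      refine ⟨h, ?_, right_ne_zero_of_mul_eq_one h3⟩
      exact (mul_eq_zero.1 h2).resolve_left (left_ne_zero_of_mul_eq_one h3)
    · left
      rw [h, mul_zero, add_zero] at h3
      refine ⟨h, ?_, left_ne_zero_of_mul_eq_one h3⟩
      exact (mul_eq_zero.1 h2).resolve_right (right_ne_zero_of_mul_eq_one h3)
  set χ : orth (qPlus 1 F) →* ℤˣ := MonoidHom.mk' (fun g => if g.1 e (.inr 0) = 0 then 1 else -1)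
    (fun g k => by
      simp only [H5.orth_mul_apply, hlin g (k.1 e), Pi.add_apply, Pi.smul_apply, smul_eq_mul]
      rcases hcases g with ⟨g1, g2, g3⟩ | ⟨g1, g2, g3⟩ <;>
        rcases hcases k with ⟨k1, k2, k3⟩ | ⟨k1, k2, k3⟩
      · simp [g1, k1]
      · have : g.1 f (.inr 0) ≠ 0 := fun h => by
          have h4 := H5.orth_polar g e f
          rw [H5.polar_qPlus, H5.polar_qPlus] at h4
          simp only [he, hf] at g1 g2 h
          simp [he, hf, g1, g2, h] at h4
        simp [g1, k1, k3, this]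
      · simp [g3, k1, k3]
      · simp [g2, g3, k1, k3]) with hχ
  have hker : commutator (orth (qPlus 1 F)) ≤ χ.ker := Abelianization.commutator_subset_ker χ
  have key : ∀ g : orth (qPlus 1 F), g ∈ χ.ker → g.1 e (.inr 0) = 0 ∧ g.1 f (.inl 0) = 0 := by
    intro g hg
    rw [MonoidHom.mem_ker] at hg
    rcases hcases g with ⟨g1, g2, g3⟩ | ⟨g1, g2, g3⟩
    · exact ⟨g1, g2⟩
    · simp [hχ, g3] at hg
  obtain ⟨a1, a2⟩ := key a.1 (hker a.2)
  obtain ⟨b1, b2⟩ := key b.1 (hker b.2)
  refine Subtype.ext (H5.orth_ext fun v => ?_)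
  show a.1.1 (b.1.1 v) = b.1.1 (a.1.1 v)
  rw [hlin b.1 v, hlin a.1 v, map_add, map_add, map_smul, map_smul, map_smul, map_smul,
    hlin a.1 (b.1.1 e), hlin a.1 (b.1.1 f), hlin b.1 (a.1.1 e), hlin b.1 (a.1.1 f)]
  funext k
  rcases k with i | i <;> fin_cases i <;>
    simp only [Pi.add_apply, Pi.smul_apply, smul_eq_mul, a1, a2, b1, b2, Fin.zero_eta] <;> ring

/-- The transposition of two by two matrices as an isometry. -/
noncomputable def transFour (F : Type*) [Field F] : orth (qPlus 2 F) :=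
  ⟨{ toFun := fun v => vecFour (matFour v)ᵀ
     map_add' := fun u v => by
       funext k; rcases k with i | i <;> fin_cases i <;> simp [vecFour, matFour] <;> ring
     map_smul' := fun c v => by
       funext k; rcases k with i | i <;> fin_cases i <;> simp [vecFour, matFour]
     invFun := fun v => vecFour (matFour v)ᵀ
     left_inv := fun v => by
       simp only [H5.matFour_vecFour, Matrix.transpose_transpose, H5.vecFour_matFour]
     right_inv := fun v => by
       simp only [H5.matFour_vecFour, Matrix.transpose_transpose, H5.vecFour_matFour] },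
   fun v => by
     show qPlus 2 F (vecFour (matFour v)ᵀ) = _
     rw [H5.qPlus_eq_det, H5.qPlus_eq_det, H5.matFour_vecFour, Matrix.det_transpose]⟩

theorem transFour_conj (A B A' B' : SL(2, F))
    (hA : ((A⁻¹ : SL(2, F)) : Matrix (Fin 2) (Fin 2) F)ᵀ = (A' : Matrix (Fin 2) (Fin 2) F))
    (hB : ((B⁻¹ : SL(2, F)) : Matrix (Fin 2) (Fin 2) F)ᵀ = (B' : Matrix (Fin 2) (Fin 2) F)) :
    transFour F * pairHom F (A, B) = pairHom F (B', A') * transFour F := by
  refine H5.orth_ext fun v => ?_
  rw [H5.orth_mul_apply, H5.orth_mul_apply, H5.pairHom_apply, H5.pairHom_apply]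
  show vecFour (matFour (vecFour _))ᵀ = vecFour (_ * matFour (vecFour (matFour v)ᵀ) * _)
  rw [H5.matFour_vecFour, H5.matFour_vecFour, Matrix.transpose_mul, Matrix.transpose_mul,
    ← Matrix.mul_assoc, ← hB]
  have e1 : ((A'⁻¹ : SL(2, F)) : Matrix (Fin 2) (Fin 2) F) = (A : Matrix (Fin 2) (Fin 2) F)ᵀ := by
    have e2 : A' = (A⁻¹).transpose := Subtype.ext (by
      rw [Matrix.SpecialLinearGroup.coe_transpose]; exact hA.symm)
    have e3 : A'⁻¹ = A.transpose := by
      rw [inv_eq_iff_mul_eq_one, e2]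
      apply Subtype.ext
      rw [Matrix.SpecialLinearGroup.coe_mul, Matrix.SpecialLinearGroup.coe_transpose,
        Matrix.SpecialLinearGroup.coe_transpose, ← Matrix.transpose_mul,
        ← Matrix.SpecialLinearGroup.coe_mul, mul_inv_cancel, Matrix.SpecialLinearGroup.coe_one,
        Matrix.transpose_one]
    rw [e3, Matrix.SpecialLinearGroup.coe_transpose]
  rw [e1]

/-- `PΩ⁺₄(2)` has a Steinberg character. -/
theorem hasSteinberg_plusFourTwo [Finite F] (hF : Nat.card F = 2) :
    HasSteinberg 2 (commutator (orth (qPlus 2 F)) ⧸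
      Subgroup.center (commutator (orth (qPlus 2 F)))) := by
  classical
  haveI : Fintype F := Fintype.ofFinite F
  haveI : Finite (Fin 2 ⊕ Fin 2 → F) := Pi.finite
  rw [Nat.card_eq_fintype_card] at hF
  have h01 : ∀ x : F, x = 0 ∨ x = 1 := fun x => by
    by_contra h
    push Not at h
    have := Finset.card_le_univ ({0, 1, x} : Finset F)
    rw [Finset.card_eq_three.2 ⟨0, 1, x, zero_ne_one, h.1.symm, h.2.symm, rfl⟩, hF] at this
    omega
  have h2 : (1 : F) + 1 = 0 := by
    rcases h01 (1 + 1) with h | h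
    · exact h
    · exact absurd (add_left_cancel (h.trans (add_zero (1 : F)).symm)) one_ne_zero
  have hneg : (-1 : F) = 1 := neg_eq_of_add_eq_zero_right h2
  set c : SL(2, F) := sx 1 * sy 1 with hc
  have hswi : (sw : SL(2, F))⁻¹ = sw := by
    rw [inv_eq_iff_mul_eq_one]
    apply H92.sl2_ext <;> simp [H92.sl2_mul_apply, hneg]
  have hcsw : sw * c * sw = c * c := by
    apply H92.sl2_ext <;> simp [hc, H92.sl2_mul_apply, hneg, h2]
  have hc3 : c ^ 3 = 1 := by
    rw [pow_succ, pow_two]
    apply H92.sl2_ext <;> simp [hc, H92.sl2_mul_apply, hneg, h2]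
  have hc1 : c ≠ 1 := fun h => by
    have := congrArg (fun g : SL(2, F) => g 0 1) h
    simp [hc, H92.sl2_mul_apply] at this
  have hcne : sw * c ≠ c * sw := fun h => by
    have h' : sw * c * sw = c := by rw [h, mul_assoc, inv_eq_iff_mul_eq_one.1 hswi, mul_one]
    rw [hcsw] at h'
    exact hc1 (mul_eq_right.1 h')
  set C : Subgroup SL(2, F) := Subgroup.zpowers c with hCdef
  haveI : Fact (Nat.Prime 3) := ⟨Nat.prime_three⟩
  have hCcard : Nat.card C = 3 := by
    rw [hCdef, Nat.card_zpowers]; exact orderOf_eq_prime hc3 hc1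
  have hSL : Nat.card SL(2, F) = 6 := by rw [H6.card_sl2 hF]; norm_num
  have hCi : C.index = 2 := by
    have := C.card_mul_index; rw [hCcard, hSL] at this; omega
  have hC3 : ∀ g : SL(2, F), g ∈ C ↔ g ^ 3 = 1 := by
    intro g
    constructor
    · rintro ⟨n, rfl⟩
      show (c ^ n) ^ 3 = 1
      rw [← zpow_natCast, ← zpow_mul, mul_comm, zpow_mul, zpow_natCast, hc3, one_zpow]
    · intro h
      have hsq := Subgroup.sq_mem_of_index_two hCi g
      have e : g = (g ^ 2) ^ 2 * (g ^ 3)⁻¹ := by group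
      rw [e, h, inv_one, mul_one]
      exact pow_mem hsq 2
  set φ := pairHom F with hφ
  have hinj : Function.Injective φ := by
    rw [← MonoidHom.ker_eq_bot_iff, eq_bot_iff]
    refine (H5.ker_pairHom_le (F := F)).trans ?_
    have h1 : Subgroup.center SL(2, F) = ⊥ := by
      refine Subgroup.eq_bot_of_card_eq _ ?_
      rw [H6.card_center_sl2 hF]; rfl
    rw [Subgroup.center_prod, h1, Subgroup.bot_prod_bot]
  set R := φ.range with hR
  have hRcard : Nat.card R = 36 := by
    rw [← Nat.card_congr (MonoidHom.ofInjective hinj).toEquiv, Nat.card_prod, hSL]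
  have hGcard : Nat.card (orth (qPlus 2 F)) = 72 := by
    have h := H4.card_qIsoms_qPlus (F := F) 1
    rw [hF] at h
    norm_num at h
    exact_mod_cast h
  have hRi : R.index = 2 := by
    have := R.card_mul_index; rw [hRcard, hGcard] at this; omega
  haveI : Finite (orth (qPlus 2 F)) := Nat.finite_of_card_ne_zero (by omega)
  haveI hRn : R.Normal := Subgroup.normal_of_index_eq_two hRi
  set S : Subgroup (orth (qPlus 2 F)) := (C.prod C).map φ with hS
  have hSmem : ∀ g, g ∈ R → g ^ 3 = 1 → g ∈ S := by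
    rintro _ ⟨⟨A, B⟩, rfl⟩ h
    rw [← map_pow, ← map_one φ] at h
    have h' := hinj h
    exact ⟨(A, B), ⟨(hC3 A).2 (congrArg Prod.fst h'), (hC3 B).2 (congrArg Prod.snd h')⟩, rfl⟩
  have hS3 : ∀ g ∈ S, g ∈ R ∧ g ^ 3 = 1 := by
    rintro _ ⟨⟨A, B⟩, ⟨hA, hB⟩, rfl⟩
    refine ⟨⟨_, rfl⟩, ?_⟩
    rw [← map_pow, show ((A, B) : SL(2, F) × SL(2, F)) ^ 3 = 1 from
      Prod.ext ((hC3 A).1 hA) ((hC3 B).1 hB), map_one]
  haveI hSn : S.Normal := ⟨fun g hg k => by
    refine hSmem _ (hRn.conj_mem _ (hS3 g hg).1 k) ?_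
    rw [conj_pow, (hS3 g hg).2, mul_one, mul_inv_cancel]⟩
  have hScard : Nat.card S = 9 := by
    rw [hS, Subgroup.card_map_of_injective hinj, Nat.card_congr (Subgroup.prodEquiv C C).toEquiv,
      Nat.card_prod, hCcard]
  have hSab : ∀ a ∈ S, ∀ b ∈ S, a * b = b * a := by
    rintro _ ⟨⟨A, B⟩, ⟨hA, hB⟩, rfl⟩ _ ⟨⟨A', B'⟩, ⟨hA', hB'⟩, rfl⟩
    rw [← map_mul, ← map_mul]
    congr 1
    have hcomm : ∀ {x y : SL(2, F)}, x ∈ C → y ∈ C → x * y = y * x := by
      rintro _ _ ⟨i, rfl⟩ ⟨j, rfl⟩
      exact ((Commute.refl c).zpow_zpow i j).eq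
    exact Prod.ext (hcomm hA hA') (hcomm hB hB')
  set Ω := commutator (orth (qPlus 2 F)) with hΩ
  have hmem : ∀ x y, x * y * x⁻¹ * y⁻¹ ∈ Ω := fun x y =>
    Subgroup.commutator_mem_commutator (Subgroup.mem_top x) (Subgroup.mem_top y)
  have hc2 : φ (c * c, 1) ∈ Ω ∧ φ (1, c * c) ∈ Ω := by
    constructor
    · have h := hmem (φ (c, 1)) (φ (sw, 1))
      rw [← map_inv, ← map_inv, ← map_mul, ← map_mul, ← map_mul] at h
      convert h using 2
      refine Prod.ext ?_ (by simp)
      show c * c = c * sw * c⁻¹ * sw⁻¹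
      rw [hswi]
      have : sw * c⁻¹ * sw = c := by
        rw [show (c⁻¹ : SL(2, F)) = c * c from inv_eq_of_mul_eq_one_right (by
          rw [← mul_assoc, ← pow_two, ← pow_succ]; exact hc3)]
        apply H92.sl2_ext <;> simp [hc, H92.sl2_mul_apply, hneg, h2]
      rw [mul_assoc c, mul_assoc c, this]
    · have h := hmem (φ (1, c)) (φ (1, sw))
      rw [← map_inv, ← map_inv, ← map_mul, ← map_mul, ← map_mul] at h
      convert h using 2
      refine Prod.ext (by simp) ?_
      show c * c = c * sw * c⁻¹ * sw⁻¹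
      rw [hswi]
      have : sw * c⁻¹ * sw = c := by
        rw [show (c⁻¹ : SL(2, F)) = c * c from inv_eq_of_mul_eq_one_right (by
          rw [← mul_assoc, ← pow_two, ← pow_succ]; exact hc3)]
        apply H92.sl2_ext <;> simp [hc, H92.sl2_mul_apply, hneg, h2]
      rw [mul_assoc c, mul_assoc c, this]
  have hSΩ : S ≤ Ω := by
    rintro _ ⟨⟨A, B⟩, ⟨⟨i, rfl⟩, ⟨j, rfl⟩⟩, rfl⟩
    have hcc : c = (c * c) * (c * c) := by
      rw [← pow_two, ← pow_two, ← pow_mul, show 2 * 2 = 3 + 1 from rfl, pow_succ, hc3, one_mul]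
    have e1 : φ (c, 1) ∈ Ω := by
      rw [hcc, show ((c * c) * (c * c), (1 : SL(2, F))) = (c * c, 1) * (c * c, 1) by simp, map_mul]
      exact mul_mem hc2.1 hc2.1
    have e2 : φ (1, c) ∈ Ω := by
      rw [hcc, show ((1 : SL(2, F)), (c * c) * (c * c)) = (1, c * c) * (1, c * c) by simp, map_mul]
      exact mul_mem hc2.2 hc2.2
    show φ (c ^ i, c ^ j) ∈ Ω
    rw [show (c ^ i, c ^ j) = (c, 1) ^ i * ((1, c) : SL(2, F) × SL(2, F)) ^ j from
      Prod.ext (by simp) (by simp), map_mul, map_zpow, map_zpow]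
    exact mul_mem (zpow_mem e1 i) (zpow_mem e2 j)
  have hswC : sw ∉ C := by
    rintro ⟨i, hi⟩
    have hi' : c ^ i = sw := hi
    exact hcne (by rw [← hi']; exact ((Commute.refl c).zpow_left i).eq)
  have hd : φ (sw, sw) ∈ Ω := by
    have ht : transFour F * φ (sw, 1) = φ (1, sw) * transFour F := by
      refine transFour_conj sw 1 sw 1 ?_ ?_
      · rw [hswi]
        ext i j
        fin_cases i <;> fin_cases j <;> simp [hneg]
      · simp
    have h := hmem (transFour F) (φ (sw, 1))
    rw [ht, mul_inv_cancel_right, ← map_inv, ← map_mul] at h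
    convert h using 2
    simp [hswi]
  have hdS : φ (sw, sw) ∉ S := by
    rintro ⟨⟨A, B⟩, ⟨hA, -⟩, e⟩
    have e1 : A = sw := congrArg Prod.fst (hinj e)
    exact hswC (e1 ▸ hA)
  have hΩcard : Nat.card Ω = 18 := by
    have hle : Nat.card Ω ≤ 18 := by
      let π := QuotientGroup.mk' S
      have hQcard : Nat.card (orth (qPlus 2 F) ⧸ S) = 8 := by
        have := S.card_mul_index
        rw [hScard, hGcard, Subgroup.index] at this
        omega
      have hmap : Ω.map π = commutator (orth (qPlus 2 F) ⧸ S) := by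
        rw [hΩ, commutator_def, Subgroup.map_commutator,
          Subgroup.map_top_of_surjective π (QuotientGroup.mk'_surjective S), commutator_def]
      haveI : Fact (Nat.Prime 2) := ⟨Nat.prime_two⟩
      have hcl : Nat.card (commutator (orth (qPlus 2 F) ⧸ S)) ≤ 2 := by
        set Q := orth (qPlus 2 F) ⧸ S
        set Z := Subgroup.center Q
        have hpg : IsPGroup 2 Q := IsPGroup.of_card (n := 3) (by rw [hQcard]; norm_num)
        haveI : Nontrivial Q := Finite.one_lt_card_iff_nontrivial.1 (by omega)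
        have hZnt := hpg.center_nontrivial
        obtain ⟨k, hk⟩ := (hpg.to_subgroup Z).exists_card_eq
        have hk0 : k ≠ 0 := fun h => by
          rw [h, pow_zero] at hk
          exact absurd (Nat.card_eq_one_iff_unique.1 hk).1 (not_subsingleton _)
        have hmi := Z.card_mul_index
        rw [hQcard, hk] at hmi
        by_cases hcomm : ∀ x y : Q, x * y = y * x
        · have : commutator Q = ⊥ := by
            rw [eq_bot_iff, commutator_def, Subgroup.commutator_le]
            intro x _ y _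
            rw [Subgroup.mem_bot, commutatorElement_eq_one_iff_mul_comm, hcomm]
          rw [this, Subgroup.card_bot]; omega
        have hk1 : k = 1 := by
          by_contra hk1
          refine hcomm fun x y => ?_
          have hcyc : IsCyclic (Q ⧸ Z) := by
            have hdvd : Nat.card (Q ⧸ Z) ∣ 2 := by
              rw [← Subgroup.index_eq_card]
              obtain ⟨d, rfl⟩ : ∃ d, k = d + 2 := ⟨k - 2, by omega⟩
              exact Dvd.intro_left (2 ^ d) (Nat.eq_of_mul_eq_mul_left (show 0 < 4 by norm_num)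
                (by rw [pow_add] at hmi; linarith))
            exact isCyclic_of_card_dvd_prime hdvd
          exact commutative_of_cyclic_center_quotient (QuotientGroup.mk' Z) (by simp [Z]) x y
        subst hk1
        have habQ : ∀ x y : Q ⧸ Z, x * y = y * x := by
          have h4 : Nat.card (Q ⧸ Z) = 2 ^ 2 := by rw [← Subgroup.index_eq_card]; omega
          exact fun x y => (IsPGroup.isMulCommutative_of_card_eq_prime_sq h4).is_comm.comm x y
        have hle' : commutator Q ≤ Z := by
          rw [commutator_def, Subgroup.commutator_le]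
          intro x _ y _
          rw [← QuotientGroup.eq_one_iff, ← QuotientGroup.mk'_apply, map_commutatorElement,
            commutatorElement_eq_one_iff_mul_comm, habQ]
        have := Nat.le_of_dvd (by rw [hk]; norm_num) (Subgroup.card_dvd_of_le hle')
        rw [hk] at this
        simpa using this
      have h9 : Nat.card Ω = Nat.card S * Nat.card (Ω.map π) := by
        have h1 := Subgroup.card_eq_card_quotient_mul_card_subgroup (S.subgroupOf Ω)
        rw [Nat.card_congr (Subgroup.subgroupOfEquivOfLe hSΩ).toEquiv] at h1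
        rw [h1, mul_comm]
        congr 1
        have hker : (π.comp Ω.subtype).ker = S.subgroupOf Ω := by
          ext x; simp [π, Subgroup.mem_subgroupOf]
        rw [← hker, Nat.card_congr (QuotientGroup.quotientKerEquivRange _).toEquiv,
          MonoidHom.range_comp, Subgroup.range_subtype]
      rw [h9, hScard, hmap]
      omega
    have h9 : 9 ∣ Nat.card Ω := hScard ▸ Subgroup.card_dvd_of_le hSΩ
    have hne : Nat.card Ω ≠ 9 := fun h => hdS ((Subgroup.eq_of_le_of_card_ge hSΩ (by omega)) ▸ hd)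
    have hpos : 0 < Nat.card Ω := Nat.card_pos
    omega
  have hSi : (S.subgroupOf Ω).index = 2 := by
    have := (S.subgroupOf Ω).card_mul_index
    rw [Nat.card_congr (Subgroup.subgroupOfEquivOfLe hSΩ).toEquiv, hScard, hΩcard] at this
    omega
  set d : Ω := ⟨φ (sw, sw), hd⟩ with hddef
  have hnc : ∀ a : SL(2, F), a ∈ C → sw * a = a * sw → a = 1 := by
    intro a ha hcom
    obtain ⟨i, hi⟩ := ha
    have hi' : c ^ i = a := hi
    subst hi'
    have hmod : c ^ (i % 3) = c ^ i := by
      have := zpow_mod_orderOf c i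
      rwa [orderOf_eq_prime hc3 hc1] at this
    rw [← hmod] at hcom ⊢
    rcases (show i % 3 = 0 ∨ i % 3 = 1 ∨ i % 3 = 2 by omega) with h | h | h <;>
      rw [h] at hcom ⊢
    · rw [zpow_zero]
    · rw [zpow_one] at hcom; exact absurd hcom hcne
    · exfalso
      have e : c ^ (2 : ℤ) = c * c := zpow_two c
      rw [e] at hcom
      have hcc : c = (c * c) * (c * c) := by
        rw [← pow_two, ← pow_two, ← pow_mul, show 2 * 2 = 3 + 1 from rfl, pow_succ, hc3, one_mul]
      exact hcne (by rw [hcc]; exact ((show Commute sw (c * c) from hcom).mul_right hcom).eq)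
  have hZ : Subgroup.center Ω = ⊥ := by
    rw [eq_bot_iff]
    intro z hz
    have hcomm := Subgroup.mem_center_iff.1 hz
    have hzS : (z : orth (qPlus 2 F)) ∈ S := by
      by_contra hzS
      have h1 : z * d⁻¹ ∈ S.subgroupOf Ω := by
        rw [Subgroup.mul_mem_iff_of_index_two hSi]
        exact iff_of_false hzS (fun h => hdS (by simpa [hddef, Subgroup.mem_subgroupOf] using h))
      obtain ⟨⟨A, B⟩, ⟨hA, hB⟩, e⟩ := h1
      set u : Ω := ⟨φ (c, 1), hSΩ ⟨(c, 1), ⟨Subgroup.mem_zpowers c, one_mem _⟩, rfl⟩⟩ with hu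
      have h2 := congrArg Subtype.val (hcomm u)
      have hz' : (z : orth (qPlus 2 F)) = φ (A, B) * φ (sw, sw) := by
        rw [e]; simp [hddef]
      simp only [Subgroup.coe_mul, hz', hu, ← map_mul] at h2
      have h3 := congrArg Prod.fst (hinj h2)
      simp only [Prod.fst_mul] at h3
      obtain ⟨i, hi⟩ := hA
      have hi' : c ^ i = A := hi
      have hAc : c * A = A * c := hi' ▸ ((Commute.refl c).zpow_right i).eq
      refine hcne (mul_left_cancel (a := A) ?_)
      rw [← mul_assoc A sw c, ← mul_assoc A c sw, ← hAc, mul_assoc c A sw]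
      exact h3.symm
    obtain ⟨⟨A, B⟩, ⟨hA, hB⟩, e⟩ := hzS
    have h2 := congrArg Subtype.val (hcomm d)
    simp only [Subgroup.coe_mul, hddef, ← e, ← map_mul] at h2
    have h3 := hinj h2
    rw [Subgroup.mem_bot]
    apply Subtype.ext
    rw [← e, show ((A, B) : SL(2, F) × SL(2, F)) = 1 from
      Prod.ext (hnc A hA (congrArg Prod.fst h3)) (hnc B hB (congrArg Prod.snd h3)), map_one,
      OneMemClass.coe_one]
  haveI : Finite Ω := Subtype.finite
  refine hasSteinberg_congr (p := 2)
    ((QuotientGroup.quotientMulEquivOfEq hZ).trans QuotientGroup.quotientBot) ?_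
  refine hasSteinberg_index_two (S.subgroupOf Ω) hSi
    (fun a ha b hb => Subtype.ext (hSab _ ha _ hb)) ?_ ?_
  · rw [Nat.card_congr (Subgroup.subgroupOfEquivOfLe hSΩ).toEquiv, hScard]; decide
  · intro h
    have : Subgroup.center Ω = ⊤ := eq_top_iff.2 fun x _ => Subgroup.mem_center_iff.2 fun y => h y x
    have hbt : (⊤ : Subgroup Ω) = ⊥ := this.symm.trans hZ
    have := congrArg (fun H : Subgroup Ω => Nat.card H) hbt
    simp [hΩcard] at this

end Cfsg.Agent.H2.St
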